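import Cfsg.Agent.H225.EX.SmallKill
import Cfsg.Agent.H347.EPX.R1Kill

/-!
# S5745, own characteristic, small socles of rank one: `OwnSmall p G` for the seven families (helper225)

from the bounds `Cnts` (helper157) and helper347's `kill_u3`.
-/

set_option autoImplicit false

namespace Cfsg.Agent.H225.EX

open Cfsg Cfsg.Agent.H209.EPX Cfsg.Agent.H470.EPO Cfsg.Agent.OrdDiv

theorem own_small {p : ℕ} [Fact p.Prime] {G : Type} [Group G] [Finite G] [IsSimpleGroup G] {X : Prop} (C : Cnts)
    (hB : BigB p G X) (hX : X → KillU p G) : OwnSmall p G :=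
  fun H N T _ e h hs => small_kill C hB hX H N T e h hs

variable (C : Cnts) (OT : OrderTable.{0})

include C OT

theorem small_e8 (F : Type) [Field F] [Fintype F] (p : ℕ) [Fact p.Prime] [CharP F p]
    [IsSimpleGroup ↥(Lie.chevE8.group F)] : OwnSmall p ↥(Lie.chevE8.group F) :=
  own_small C (bigB_e8 OT F p False) False.elim

theorem small_e7 (F : Type) [Field F] [Fintype F] (p : ℕ) [Fact p.Prime] [CharP F p]
    [IsSimpleGroup ↥(Lie.chevE7.group F)] : OwnSmall p ↥(Lie.chevE7.group F) :=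
  own_small C (bigB_e7 OT F p False) False.elim

theorem small_e6 (F : Type) [Field F] [Fintype F] (p : ℕ) [Fact p.Prime] [CharP F p]
    [IsSimpleGroup ↥(Lie.chevE6.group F)] : OwnSmall p ↥(Lie.chevE6.group F) :=
  own_small C (bigB_e6 OT F p False) False.elim

theorem small_f4 (F : Type) [Field F] [Fintype F] (p : ℕ) [Fact p.Prime] [CharP F p]
    [IsSimpleGroup ↥(Lie.chevF4.group F)] : OwnSmall p ↥(Lie.chevF4.group F) :=
  own_small C (bigB_f4 OT F p False) False.elim

theorem small_te6 (K : Type) [Field K] [Fintype K] (p q : ℕ) [Fact p.Prime] [CharP K p]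
    [IsSimpleGroup ↥(Lie.twistedE6 K q)] (hq : IsPrimePow q) (hK : Fintype.card K = q ^ 2) :
    OwnSmall p ↥(Lie.twistedE6 K q) :=
  own_small C (bigB_te6 OT K p q False hq hK) False.elim

theorem small_td4 (K : Type) [Field K] [Fintype K] (p q : ℕ) [Fact p.Prime] [CharP K p]
    [IsSimpleGroup ↥(Lie.twistedD4 K q)] (hq : IsPrimePow q) (hK : Fintype.card K = q ^ 3) :
    OwnSmall p ↥(Lie.twistedD4 K q) :=
  own_small C (bigB_td4 OT K p q False hq hK) False.elim

theorem small_g2 (F : Type) [Field F] [Fintype F] (p : ℕ) [Fact p.Prime] [CharP F p]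
    [IsSimpleGroup ↥(Lie.chevG2.group F)] (h3 : 3 ≤ Fintype.card F) : OwnSmall p ↥(Lie.chevG2.group F) :=
  own_small C (bigB_g2 OT F p h3) fun hF _ _ _ _ _ h hp _ _ _ _ hK f =>
    Cfsg.Agent.H347.EPX.kill_u3 hp hF h hK f

end Cfsg.Agent.H225.EX
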