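import Cfsg.Agent.H226.EX.Glue
import Cfsg.Agent.H119.EP.UThree

/-!
# S5745, own characteristic, small socles of rank one: `U₃(3)` (helper225)

`cnt_u3` : `EPS H N e`, `k = 1`, `T ≅ U₃(3)`, `G` simple : `|G| ≤ 4239212544` (helper119's bound).
-/

set_option autoImplicit false

namespace Cfsg.Agent.H225.EX

open Cfsg Cfsg.Agent.H209.EPX Cfsg.Agent.H226.EX

/-- the socle of an `EPS` with `k = 1` -/
def nEquiv {G : Type*} [Group G] {N : Subgroup G} {T : Type*} [Group T] (e : N ≃* (Fin 1 → T)) : N ≃* T :=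
  e.trans (MulEquiv.piUnique (fun _ : Fin 1 => T))

theorem cent_of_eps {G : Type*} [Group G] {H N : Subgroup G} {T : Type} [Group T] {k : ℕ} {e : N ≃* (Fin k → T)}
    (h : EPS H N e) : ∀ a ∈ H, (∀ n ∈ N, a * n = n * a) → a = 1 := by
  intro a _ ha
  have h1 : a ∈ Subgroup.centralizer (N : Set G) := by
    rw [Subgroup.mem_centralizer_iff]
    exact fun n hn => (ha n hn).symm
  rw [h.cent] at h1
  exact Subgroup.mem_bot.1 h1

/-- **`U₃(3)`** -/
theorem cnt_u3 {G : Type} [Group G] [Finite G] [IsSimpleGroup G] {H N : Subgroup G} {T : Type} [Group T]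
    {e : N ≃* (Fin 1 → T)} (h : EPS H N e) {F : Type} [Field F] [Fintype F] (hF : Fintype.card F = 3 ^ 2)
    (f : T ≃* PSU 3 F 3) : Nat.card G ≤ 4239212544 :=
  Cfsg.Agent.H119.EP.card_le_psu33 (ept_of_eps h) h.le h.nrm hF ((nEquiv e).trans f) (cent_of_eps h)

end Cfsg.Agent.H225.EX
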