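import Cfsg.Agent.H225.EX.SmallOrdB
import Cfsg.Agent.H225.EX.SmallU3
import Cfsg.Agent.SmallSimple.PSLTwoPart

/-!
# S5745, own characteristic, small socles of rank one: counts against orders (helper225)

`Cnts` : the bounds for `A₅`, `A₆`, `U₃(5)` (helper157); `small_kill` : no small socle in a group with `BigB`.
-/

set_option autoImplicit false

namespace Cfsg.Agent.H225.EX

open Cfsg Cfsg.Agent.H209.EPX

/-- **the bounds** (`k = 1`) -/
structure Cnts : Prop where
  a5 : ∀ {G : Type} [Group G] [Finite G] [IsSimpleGroup G] {H N : Subgroup G} {T : Type} [Group T]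
    {e : N ≃* (Fin 1 → T)}, EPS H N e → ∀ {F : Type} [Field F] [Fintype F], (Fintype.card F = 4 ∨ Fintype.card F = 5) →
    (T ≃* Matrix.ProjectiveSpecialLinearGroup (Fin 2) F) → Nat.card G < 211341312
  a6 : ∀ {G : Type} [Group G] [Finite G] [IsSimpleGroup G] {H N : Subgroup G} {T : Type} [Group T]
    {e : N ≃* (Fin 1 → T)}, EPS H N e → ∀ {F : Type} [Field F] [Fintype F], Fintype.card F = 9 →
    (T ≃* Matrix.ProjectiveSpecialLinearGroup (Fin 2) F) → Nat.card G < 20560831566912
  u5 : ∀ {G : Type} [Group G] [Finite G] [IsSimpleGroup G] {H N : Subgroup G} {T : Type} [Group T]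
    {e : N ≃* (Fin 1 → T)}, EPS H N e → ∀ {F : Type} [Field F] [Fintype F], Fintype.card F = 5 ^ 2 →
    (T ≃* PSU 3 F 5) → Nat.card G < 35817806390625000000

/-- the small groups of rank one (`H470.EPO.SmallR1`) -/
def SmR1 (p : ℕ) (T : Type) [Group T] : Prop :=
  (∃ (F : Type) (_ : Field F) (_ : Fintype F) (_ : CharP F p), (Fintype.card F = 4 ∨ Fintype.card F = 5 ∨
    Fintype.card F = 9) ∧ Nonempty (T ≃* Matrix.ProjectiveSpecialLinearGroup (Fin 2) F)) ∨
  (∃ (F : Type) (_ : Field F) (_ : Fintype F) (_ : CharP F p) (q : ℕ), Fintype.card F = q ^ 2 ∧ (q = 3 ∨ q = 5) ∧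
    Nonempty (T ≃* PSU 3 F q))

/-- the characteristic -/
theorem char_eq {F : Type} [Field F] [Fintype F] {p r k : ℕ} [hp : Fact p.Prime] [CharP F p] (hr : r.Prime)
    (hF : Fintype.card F = r ^ k) : p = r := by
  have h1 : p ∣ Fintype.card F := (CharP.cast_eq_zero_iff F p _).1 (Nat.cast_card_eq_zero F)
  rw [hF] at h1
  exact (Nat.prime_dvd_prime_iff_eq hp.out hr).1 (hp.out.dvd_of_dvd_pow h1)

/-- the exceptions `U₃(p)` in `G₂(p)` -/
def KillU (p : ℕ) (G : Type) [Group G] : Prop :=
  ∀ (H N : Subgroup G) (T : Type) [Group T] (e : N ≃* (Fin 1 → T)), EPS H N e → (p = 3 ∨ p = 5) →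
    ∀ (K : Type) [Field K] [Fintype K] [CharP K p], Fintype.card K = p ^ 2 → (T ≃* PSU 3 K p) → False

/-- **no small socle** -/
theorem small_kill (C : Cnts) {p : ℕ} [Fact p.Prime] {G : Type} [Group G] [Finite G] [IsSimpleGroup G] {X : Prop}
    (hB : BigB p G X) (hX : X → KillU p G) :
    ∀ (H N : Subgroup G) (T : Type) [Group T] (e : N ≃* (Fin 1 → T)), EPS H N e → SmR1 p T → False := by
  rintro H N T _ e h (⟨F, i1, i2, i3, hF, ⟨f⟩⟩ | ⟨F, i1, i2, i3, q, hF, hq, ⟨f⟩⟩)
  · rcases (by tauto : (Fintype.card F = 4 ∨ Fintype.card F = 5) ∨ Fintype.card F = 9) with h1 | h1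
    · have h2 := C.a5 h h1 f
      have h3 : p ≠ 3 := by
        rcases h1 with h1 | h1
        · rw [char_eq (F := F) (p := p) (r := 2) (k := 2) Nat.prime_two (by rw [h1]; norm_num)]
          norm_num
        · rw [char_eq (F := F) (p := p) (r := 5) (k := 1) Nat.prime_five (by rw [h1]; norm_num)]
          norm_num
      have h4 := hB.a5 h3
      omega
    · have h2 := C.a6 h h1 f
      have h3 : p = 3 := char_eq (F := F) (k := 2) Nat.prime_three (by rw [h1]; norm_num)
      rcases hB.a6 h3 with h4 | h4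
      · omega
      · apply h4
        have h5 := Cfsg.Agent.SmallSimple.PSLTwoPart.card_psl_two_odd (F := F) (by rw [h1]; decide)
        rw [h1] at h5
        have h6 : Nat.card (Matrix.ProjectiveSpecialLinearGroup (Fin 2) F) = 360 := by omega
        have h7 : Nat.card N = 360 := by
          rw [Nat.card_congr ((nEquiv e).trans f).toEquiv, h6]
        have h8 : Nat.card N ∣ Nat.card G := Subgroup.card_subgroup_dvd_card N
        rw [h7] at h8
        exact (by norm_num : 5 ∣ 360).trans h8
  · rcases hq with rfl | rfl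
    · have h3 : p = 3 := char_eq (F := F) Nat.prime_three hF
      subst h3
      rcases hB.u3 rfl with h4 | h4
      · have h5 := cnt_u3 h hF f
        omega
      · exact hX h4 H N T e h (Or.inl rfl) F hF f
    · have h3 : p = 5 := char_eq (F := F) Nat.prime_five hF
      subst h3
      rcases hB.u5 rfl with h4 | h4
      · have h5 := C.u5 h hF f
        omega
      · exact hX h4 H N T e h (Or.inr rfl) F hF f

end Cfsg.Agent.H225.EX
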